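import Cfsg.Agent.H575.Hall.Rep

/-!
# S2223, SPROW: the frame of `GU n F = Sp_2n(F)`, `q ≡ ±3 mod 8`

* `isQ_map` : `(Q8 F).map (Rj i)` is a quaternion group of order 8;
* `frSp` : `FrSp (rho K hab) S (fun j => Rj j nu) (fun j => (Q8 F).map (Rj j))`;
* `card_SG` : the order of the wreath product;
* `exists_frame` : everything over an algebraically closed field.
-/

set_option autoImplicit false
set_option linter.unusedSectionVars false

namespace Cfsg.Agent.H575.Hall

open Quaternion Matrix Equiv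
open Cfsg.Agent.H158.PronQ Cfsg.Agent.H158.PronMat Cfsg.Agent.H158.PronMono Cfsg.Agent.H158.PronSp
open Cfsg.Agent.H158.PronM2 Cfsg.Agent.H158.PronFrame Cfsg.Agent.H158.PronAvg Cfsg.Agent.H408.Pron.Gen
open Cfsg.Agent.H125.Hall

universe u v w

section Q8

variable {F : Type u} [Field F] {n : Type w} [Fintype n] [DecidableEq n]

theorem one_ne_neg_one (h2 : (2 : F) ≠ 0) : (1 : ℍ[F]) ≠ -1 := by
  intro h
  have h1 := congrArg QuaternionAlgebra.re h
  have h3 : (1 : F) = -1 := by simpa using h1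
  apply h2
  have h4 : (2 : F) = 1 + 1 := by norm_num
  rw [h4]
  nth_rewrite 1 [h3]
  exact neg_add_cancel 1

theorem nu_ne_one (h2 : (2 : F) ≠ 0) : (nu : U F) ≠ 1 := fun h =>
  one_ne_neg_one h2 (congrArg Subtype.val h).symm

theorem nu_comm (u : U F) : u * nu = nu * u := by
  apply Subtype.ext
  show (u : ℍ[F]) * (-1) = (-1) * (u : ℍ[F])
  rw [mul_neg, neg_mul, mul_one, one_mul]

theorem orderOf_uI (h2 : (2 : F) ≠ 0) : orderOf (uI : U F) = 4 := by
  have h1 : (uI : U F) ^ 2 = nu := by rw [pow_two]; exact uI_sq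
  have : orderOf (uI : U F) = 2 ^ (1 + 1) := by
    apply orderOf_eq_prime_pow
    · rw [pow_one, h1]; exact nu_ne_one h2
    · rw [pow_succ, pow_one, pow_mul, h1, pow_two, nu_sq]
  rw [this]
  norm_num

theorem uJ_sq : (uJ : U F) * uJ = nu := by
  apply Subtype.ext
  show (qj : ℍ[F]) * qj = -1
  exact qj_mul_qj

theorem uJ_conj : (uJ : U F) * uI * uJ⁻¹ = uI⁻¹ := by
  apply Subtype.ext
  show (qj : ℍ[F]) * qi * ((uJ⁻¹ : U F) : ℍ[F]) = ((uI⁻¹ : U F) : ℍ[F])
  rw [Cfsg.Agent.H158.PronQ.coe_inv, Cfsg.Agent.H158.PronQ.coe_inv, coe_uI, coe_uJ, star_qi, star_qj, qj_mul_qi,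
    neg_mul_neg, qk_mul_qj]

theorem uJ_notMem (h2 : (2 : F) ≠ 0) : (uJ : U F) ∉ Subgroup.zpowers uI := by
  intro h
  have hc : (uJ : U F) * uI = uI * uJ := by
    obtain ⟨k, hk⟩ := Subgroup.mem_zpowers_iff.1 h
    rw [← hk]
    exact ((Commute.refl (uI : U F)).zpow_left k).eq
  have h1 := congrArg Subtype.val hc
  have h3 : (qj : ℍ[F]) * qi = qi * qj := h1
  rw [qj_mul_qi, qi_mul_qj] at h3
  have h4 := congrArg QuaternionAlgebra.imK h3
  have h5 : -(1 : F) = 1 := by simpa using h4
  apply h2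
  have h6 : (2 : F) = 1 + 1 := by norm_num
  rw [h6]
  nth_rewrite 1 [← h5]
  exact neg_add_cancel 1

theorem nonempty_Q8 (h2 : (2 : F) ≠ 0) : Nonempty (Q8 F ≃* QuaternionGroup 2) := by
  have ha' : (uI : U F) ^ (2 * 2) = 1 := by
    have := pow_orderOf_eq_one (uI : U F)
    rwa [orderOf_uI h2] at this
  have hx : (uJ : U F) * uJ = uI ^ 2 := by rw [uJ_sq, pow_two, uI_sq]
  let f := Cfsg.Agent.Lib.DihedralRecog.quaternionHom (uI : U F) uJ ha' hx uJ_conj
  have hf : Function.Injective f :=
    Cfsg.Agent.Lib.DihedralRecog.quaternionHom_injective (uI : U F) uJ ha' hx uJ_conj (orderOf_uI h2) (uJ_notMem h2)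
  have hr : f.range = Q8 F := by
    apply le_antisymm
    · rintro _ ⟨(i | i), rfl⟩
      · rw [Cfsg.Agent.Lib.DihedralRecog.quaternionHom_a]
        exact (Subgroup.zpowers_le.2 uI_mem) (Cfsg.Agent.Lib.DihedralRecog.zpw_mem _ _ i)
      · rw [Cfsg.Agent.Lib.DihedralRecog.quaternionHom_xa]
        exact mul_mem uJ_mem ((Subgroup.zpowers_le.2 uI_mem) (Cfsg.Agent.Lib.DihedralRecog.zpw_mem _ _ i))
    · have hI : (uI : U F) ∈ f.range := ⟨QuaternionGroup.a 1, by
        rw [Cfsg.Agent.Lib.DihedralRecog.quaternionHom_a]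
        have := Cfsg.Agent.Lib.DihedralRecog.zpw_intCast (uI : U F) ha' 1
        rw [Int.cast_one] at this
        rw [this, zpow_one]⟩
      have hJ : (uJ : U F) ∈ f.range := ⟨QuaternionGroup.xa 0, by
        rw [Cfsg.Agent.Lib.DihedralRecog.quaternionHom_xa, Cfsg.Agent.Lib.DihedralRecog.zpw_zero, mul_one]⟩
      have hnu : (nu : U F) ∈ f.range := by rw [← uI_sq]; exact mul_mem hI hI
      have hK : (uK : U F) ∈ f.range := by
        have : (uK : U F) = uI * uJ := by
          apply Subtype.ext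
          show (qk : ℍ[F]) = qi * qj
          rw [qi_mul_qj]
        rw [this]; exact mul_mem hI hJ
      have hneg : ∀ x : U F, x ∈ f.range → ∀ y : U F, (y : ℍ[F]) = -(x : ℍ[F]) → y ∈ f.range := by
        intro x hx y hy
        have : y = nu * x := by
          apply Subtype.ext
          rw [hy]
          show -(x : ℍ[F]) = -1 * (x : ℍ[F])
          rw [neg_mul, one_mul]
        rw [this]; exact mul_mem hnu hx
      intro u hu
      have hpos : ∀ x : U F, x ∈ f.range → ∀ y : U F, (y : ℍ[F]) = (x : ℍ[F]) → y ∈ f.range := by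
        intro x hx y hy
        rw [Subtype.ext hy]; exact hx
      rcases hu with h | h | h | h | h | h | h | h
      · exact hpos 1 (one_mem _) u h
      · exact hneg 1 (one_mem _) u h
      · exact hpos uI hI u h
      · exact hneg uI hI u h
      · exact hpos uJ hJ u h
      · exact hneg uJ hJ u h
      · exact hpos uK hK u h
      · exact hneg uK hK u h
  exact ⟨((MonoidHom.ofInjective hf).trans (MulEquiv.subgroupCongr hr)).symm⟩

theorem Rj_injective (i : n) : Function.Injective (Rj i : U F → GU n F) := by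
  intro x y h
  have h1 : (Rj i x).1 i i = (Rj i y).1 i i := by rw [h]
  rw [Rj_entry, Rj_entry] at h1
  exact Subtype.ext h1

theorem isQ_map (h2 : (2 : F) ≠ 0) (i : n) :
    Cfsg.Agent.Cit.AutQuat.IsQ ((Q8 F).map (Rj i : U F →* GU n F)) := by
  obtain ⟨e⟩ := nonempty_Q8 h2
  exact ⟨0, ⟨((Q8 F).equivMapOfInjective (Rj i) (Rj_injective i)).symm.trans e⟩⟩

theorem card_Q8 (h2 : (2 : F) ≠ 0) : Nat.card (Q8 F) = 8 := by
  obtain ⟨e⟩ := nonempty_Q8 h2
  rw [Nat.card_congr e.toEquiv, Cfsg.Agent.Lib.DihedralRecog.nat_card_quaternion]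

theorem orderOf_t (h2 : (2 : F) ≠ 0) (i : n) : orderOf (Rj i nu : GU n F) = 2 := by
  apply orderOf_eq_prime
  · rw [pow_two, ← map_mul, nu_sq, map_one]
  · intro h
    rw [← map_one (Rj i)] at h
    exact nu_ne_one h2 (Rj_injective i h)

theorem Rj_comm {i j : n} (hij : i ≠ j) (x y : U F) : (Rj i x : GU n F) * Rj j y = Rj j y * Rj i x := by
  have h1 := Mono.conj_Rj (Rj_mono j y) i (u := 1) (by
    rw [Perm.one_apply, Rj_entry_ne hij]; rfl) x
  rw [one_mul, inv_one, mul_one, Perm.one_apply, mul_inv_eq_iff_eq_mul] at h1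
  exact h1.symm

/-- the elements of `Q8` with square one -/
theorem Q8_sq (h2 : (2 : F) ≠ 0) {u : ℍ[F]} (hu : IsQ8 u) (h : u * u = 1) : u = 1 ∨ u = -1 := by
  have hne := one_ne_neg_one h2
  rcases hu with h1 | h1 | h1 | h1 | h1 | h1 | h1 | h1
  · exact Or.inl h1
  · exact Or.inr h1
  all_goals
    exfalso
    rw [h1] at h
    simp only [neg_mul_neg, qi_mul_qi, qj_mul_qj, qk_mul_qk] at h
    exact hne h.symm

end Q8

section perm

variable {n : Type w} [DecidableEq n]

theorem not_swap {T : Subgroup (Perm n)} [Finite n] (hT : IsPGroup 2 T) {i j l : n} (hij : i ≠ j) (hil : i ≠ l) (hjl : j ≠ l)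
    (h1 : swap i j ∈ T) (h2 : swap i l ∈ T) : False := by
  have := Fintype.ofFinite n
  have h3 := Perm.isThreeCycle_swap_mul_swap_same hij hil hjl
  obtain ⟨k, hk⟩ := hT ⟨_, mul_mem h1 h2⟩
  have hk' : (swap i j * swap i l) ^ 2 ^ k = 1 := congrArg Subtype.val hk
  have h4 := orderOf_dvd_of_pow_eq_one hk'
  rw [h3.orderOf] at h4
  have h5 := (Nat.Prime.dvd_of_dvd_pow Nat.prime_three h4)
  omega

/-- siblings -/
def sib (T : Subgroup (Perm n)) [Finite n] (hT : IsPGroup 2 T) : Setoid n where
  r i j := i = j ∨ swap i j ∈ T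
  iseqv :=
    { refl := fun _ => Or.inl rfl
      symm := by
        rintro i j (h | h)
        · exact Or.inl h.symm
        · right; rwa [Equiv.swap_comm]
      trans := by
        rintro i j l (h | h) (h' | h')
        · exact Or.inl (h.trans h')
        · subst h; exact Or.inr h'
        · subst h'; exact Or.inr h
        · by_cases hij : i = j
          · subst hij; exact Or.inr h'
          · by_cases hjl : j = l
            · subst hjl; exact Or.inr h
            · by_cases hil : i = l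
              · exact Or.inl hil
              · exact (not_swap hT (fun e => hij e.symm) hjl hil (by rwa [Equiv.swap_comm]) h').elim }

theorem sib_two {T : Subgroup (Perm n)} [Finite n] (hT : IsPGroup 2 T) (i j l : n) (h : sib T hT i j) (h' : sib T hT i l) :
    i = j ∨ i = l ∨ j = l := by
  rcases h with h | h
  · exact Or.inl h
  rcases h' with h' | h'
  · exact Or.inr (Or.inl h')
  by_contra hcon
  push Not at hcon
  exact not_swap hT hcon.1 hcon.2.1 hcon.2.2 h h'

theorem eq_swap {σ : Perm n} {c : n} (hc : σ c ≠ c) (h : ∀ d, d ≠ c → d ≠ σ c → σ d = d) : σ = swap c (σ c) := by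
  have h1 : σ (σ c) = c := by
    by_contra hne
    have h3 : σ (σ c) ≠ σ c := fun e => hc (σ.injective e)
    have h4 := h _ hne h3
    exact h3 (σ.injective h4)
  ext d
  by_cases hd : d = c
  · subst hd; rw [swap_apply_left]
  · by_cases hd' : d = σ c
    · subst hd'; rw [swap_apply_right, h1]
    · rw [swap_apply_of_ne_of_ne hd hd', h d hd hd']

end perm

section frame

variable {F : Type u} [Field F] {K : Type v} [Field K] [Algebra F K] {n : Type w} [Fintype n] [DecidableEq n]
variable {a b : F}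

/-- the alternating form over `K` -/
theorem exists_form (hab : a * a + b * b = -1) : ∃ B : LinearMap.BilinForm K (n ⊕ n → K), B.Nondegenerate ∧ B.IsAlt ∧
    ∀ (g : GU n F) (v w : n ⊕ n → K), B (rho K hab g v) (rho K hab g w) = B v w := by
  have hJ : ∀ v : n ⊕ n → K, Matrix.J n K *ᵥ v = Sum.elim (fun c => -v (Sum.inr c)) (fun c => v (Sum.inl c)) := by
    intro v
    have h1 : v = Sum.elim (fun c => v (Sum.inl c)) (fun c => v (Sum.inr c)) := by
      funext x; rcases x with c | c <;> rfl
    conv_lhs => rw [h1]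
    rw [Matrix.J, Matrix.fromBlocks_mulVec]
    funext x
    rcases x with c | c <;> simp [Matrix.neg_mulVec]
  refine ⟨Matrix.toBilin' (Matrix.J n K), ?_, ?_, ?_⟩
  · apply Matrix.Nondegenerate.toBilin'
    apply Matrix.nondegenerate_of_det_ne_zero
    exact (Matrix.isUnit_det_J n K).ne_zero
  · intro v
    rw [Matrix.toBilin'_apply', hJ, dotProduct, Fintype.sum_sum_type]
    simp only [Sum.elim_inl, Sum.elim_inr]
    rw [← Finset.sum_add_distrib]
    exact Finset.sum_eq_zero fun c _ => by ring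
  · intro g v w
    rw [Matrix.toBilin'_apply', Matrix.toBilin'_apply', rho_apply, rho_apply]
    have h1 : (mat K a b g.1)ᵀ * Matrix.J n K * mat K a b g.1 = Matrix.J n K := by
      have h3 := SymplecticGroup.mem_iff'.1 (toSp hab g).2
      have h4 : (Th a b g.1)ᵀ * Matrix.J n F * Th a b g.1 = Matrix.J n F := h3
      have h5 := congrArg (fun M : Matrix (n ⊕ n) (n ⊕ n) F => M.map (algebraMap F K)) h4
      have h6 : (Matrix.J n F).map (algebraMap F K) = Matrix.J n K := by
        rw [Matrix.J, Matrix.J, Matrix.fromBlocks_map]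
        congr 1
        · ext i j; simp
        · ext i j
          rw [Matrix.map_apply, Matrix.neg_apply, Matrix.neg_apply, map_neg, Matrix.one_apply, Matrix.one_apply]
          split_ifs <;> simp
        · rw [Matrix.map_one _ (map_zero _) (map_one _)]
        · ext i j; simp
      simp only [Matrix.map_mul] at h5
      rw [h6, Matrix.transpose_map] at h5
      exact h5
    have key : (mat K a b g.1 *ᵥ v) ⬝ᵥ (Matrix.J n K *ᵥ (mat K a b g.1 *ᵥ w)) = v ⬝ᵥ (Matrix.J n K *ᵥ w) := by
      rw [← Matrix.vecMul_transpose (mat K a b g.1) v, ← Matrix.dotProduct_mulVec, Matrix.mulVec_mulVec,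
        Matrix.mulVec_mulVec, h1]
    exact key

theorem Ui_two (h2 : (2 : K) ≠ 0) (hab : a * a + b * b = -1) {T : Subgroup (Perm n)} (hT : IsPGroup 2 T) {c d : n}
    (h : sib T hT c d) {W : Submodule K (n ⊕ n → K)} (hW : W ≤ Ui K c ⊔ Ui K d) :
    W ≤ ⨆ j, ⨆ _ : sib T hT c j, mv (rho K hab) (Rj j nu) := by
  refine hW.trans (sup_le ?_ ?_)
  · rw [← mv_t h2 hab c]
    exact le_iSup₂_of_le c ((sib T hT).refl c) le_rfl
  · rw [← mv_t h2 hab d]
    exact le_iSup₂_of_le d h le_rfl

/-- the involutions with a plane -/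
theorem pieces (h2F : (2 : F) ≠ 0) (h2 : (2 : K) ≠ 0) (hab : a * a + b * b = -1) {T : Subgroup (Perm n)}
    (hT : IsPGroup 2 T) {x : GU n F} (hx : x ∈ SG (Q8 F) T) (ho : orderOf x = 2)
    (hd : Module.finrank K (mv (rho K hab) x) = 2) :
    ∃ i, mv (rho K hab) x ≤ ⨆ j, ⨆ _ : sib T hT i j, mv (rho K hab) (Rj j nu) := by
  obtain ⟨σ, hσT, hσ, hent⟩ := hx
  have hxx : x * x = 1 := by rw [← pow_two, ← ho, pow_orderOf_eq_one]
  have hx1 : x ≠ 1 := by
    rintro rfl
    rw [orderOf_one] at ho
    omega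
  by_cases h1 : σ = 1
  · subst h1
    -- a coordinate with entry `-1`
    have hent' : ∀ c, x.1 c c = 1 ∨ x.1 c c = -1 := by
      intro c
      obtain ⟨w, hw, hwe⟩ := hent c
      rw [Perm.one_apply] at hwe
      have h3 : (w : ℍ[F]) * w = 1 := by
        have h4 := congrFun (congrFun (congrArg Subtype.val hxx) c) c
        have h5 : (x.1 * x.1) c c = x.1 c ((1 : Perm n) c) * x.1 ((1 : Perm n) c) c := hσ.mul_apply c c
        have h6 : (x.1 * x.1) c c = 1 := by
          have : (x.1 * x.1) c c = (1 : Matrix n n ℍ[F]) c c := h4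
          rw [this, Matrix.one_apply_eq]
        rw [h6, Perm.one_apply, ← hwe] at h5
        exact h5.symm
      rw [← hwe]
      exact Q8_sq h2F hw h3
    obtain ⟨c, hc⟩ : ∃ c, x.1 c c = -1 := by
      by_contra hcon
      push Not at hcon
      apply hx1
      apply Subtype.ext
      ext1 i j
      show x.1 i j = (1 : Matrix n n ℍ[F]) i j
      by_cases hij : i = j
      · subst hij
        rw [Matrix.one_apply_eq]
        exact (hent' i).resolve_right (hcon i)
      · rw [hσ i j hij, Matrix.one_apply_ne hij]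
    have hle : Ui K c ≤ mv (rho K hab) x := by
      intro v hv
      apply mem_mv_of_neg h2 hab
      have h3 := rho_Ui hab hσ hv
      rw [Perm.one_apply] at h3
      have h4 := rho_neg_at hab hσ v (c := c) hc
      rw [Perm.one_apply] at h4
      funext y
      rcases y with d | d
      · by_cases hdc : d = c
        · subst hdc; exact h4.1
        · rw [(h3 d hdc).1, Pi.neg_apply, (hv d hdc).1, neg_zero]
      · by_cases hdc : d = c
        · subst hdc; exact h4.2
        · rw [(h3 d hdc).2, Pi.neg_apply, (hv d hdc).2, neg_zero]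
    have heq : Ui K c = mv (rho K hab) x := Submodule.eq_of_le_of_finrank_eq hle (by rw [finrank_Ui, hd])
    refine ⟨c, ?_⟩
    rw [← heq]
    exact Ui_two h2 hab hT ((sib T hT).refl c) le_sup_left
  · obtain ⟨c, hc⟩ : ∃ c, σ c ≠ c := by
      by_contra hcon
      push Not at hcon
      exact h1 (Perm.ext hcon)
    let f : (n ⊕ n → K) →ₗ[K] (n ⊕ n → K) := rho K hab x - 1
    have hf : ∀ v, f v = rho K hab x v - v := fun v => rfl
    let W : Submodule K (n ⊕ n → K) := (Ui K c).map f
    have hWle : W ≤ mv (rho K hab) x := by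
      rintro _ ⟨v, -, rfl⟩
      exact ⟨v, rfl⟩
    have hWsup : W ≤ Ui K c ⊔ Ui K (σ c) := by
      rintro _ ⟨v, hv, rfl⟩
      rw [hf, sub_eq_add_neg, add_comm]
      exact Submodule.add_mem_sup ((Ui K c).neg_mem hv) (rho_Ui hab hσ hv)
    have hdis : Function.Injective (f.domRestrict (Ui K c)) := by
      rw [← LinearMap.ker_eq_bot, LinearMap.ker_eq_bot']
      rintro ⟨v, hv⟩ hk
      have hk' : f v = 0 := hk
      rw [hf, sub_eq_zero] at hk'
      have h3 := rho_Ui hab hσ hv
      rw [hk'] at h3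
      exact Subtype.ext (Ui_disjoint (fun e => hc e.symm) hv h3)
    have hfr : Module.finrank K W = 2 := by
      rw [← finrank_Ui (K := K) c, ← LinearMap.finrank_range_of_inj hdis, LinearMap.range_domRestrict]
    have hWeq : W = mv (rho K hab) x := Submodule.eq_of_le_of_finrank_eq hWle (by rw [hfr, hd])
    have hσ' : σ = Equiv.swap c (σ c) := by
      apply eq_swap hc
      intro d hdc hdc'
      by_contra hne
      let v : n ⊕ n → K := Sum.elim (Pi.single d 1) 0
      have hv : v ∈ Ui K d := by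
        intro e he
        show (Pi.single d 1 : n → K) e = 0 ∧ (0 : K) = 0
        rw [Pi.single_eq_of_ne he]
        exact ⟨rfl, rfl⟩
      have h3 : f v ∈ Ui K c ⊔ Ui K (σ c) := by
        apply hWsup
        rw [hWeq]
        exact ⟨v, rfl⟩
      obtain ⟨y, hy, z, hz, hyz⟩ := Submodule.mem_sup.1 h3
      have h4 : f v (Sum.inl d) = 0 := by
        rw [← hyz, Pi.add_apply, (hy d hdc).1, (hz d hdc').1, add_zero]
      have h5 := (rho_Ui hab hσ hv d (fun e => hne e.symm)).1
      rw [hf, Pi.sub_apply, h5, zero_sub, neg_eq_zero] at h4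
      have h6 : v (Sum.inl d) = 1 := by
        show (Pi.single d 1 : n → K) d = 1
        rw [Pi.single_eq_same]
      rw [h6] at h4
      exact one_ne_zero h4
    refine ⟨c, ?_⟩
    rw [← hWeq]
    exact Ui_two h2 hab hT (d := σ c) (Or.inr (hσ' ▸ hσT)) hWsup

/-- **the frame** -/
theorem frSp (h2F : (2 : F) ≠ 0) (h2 : (2 : K) ≠ 0) (hab : a * a + b * b = -1) {T : Subgroup (Perm n)}
    (hT : IsPGroup 2 T) (S : Sylow 2 (GU n F)) (hS : (S : Subgroup (GU n F)) = SG (Q8 F) T) :
    FrSp (rho K hab) S (fun j => Rj j nu) (fun j => (Q8 F).map (Rj j)) where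
  inj := rho_injective hab h2F
  two := h2
  det := rho_det hab
  isQ := isQ_map h2F
  mem i := ⟨nu, nu_mem, rfl⟩
  ord := orderOf_t h2F
  dim i := by rw [mv_t h2 hab, finrank_Ui]
  QK i := by
    rintro _ ⟨w, -, rfl⟩
    refine ⟨by rw [← map_mul, nu_comm, map_mul], fun v hv => ?_⟩
    obtain ⟨h3, h4⟩ := eq_zero_of_fix h2 hab hv
    have h5 := rho_inl (K := K) hab (Rj_mono i w) v i
    have h6 := rho_inr (K := K) hab (Rj_mono i w) v i
    rw [Perm.one_apply, h3, h4, mul_zero, mul_zero, add_zero] at h5 h6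
    funext y
    rcases y with c | c
    · by_cases hc : c = i
      · subst hc; rw [h5, h3]
      · exact (rho_Rj_ne hab hc w v).1
    · by_cases hc : c = i
      · subst hc; rw [h6, h4]
      · exact (rho_Rj_ne hab hc w v).2
  QS i := by
    rintro _ ⟨w, hw, rfl⟩
    rw [hS]
    exact Rj_mem T i hw
  comm i j hij := by
    rintro _ ⟨x, -, rfl⟩ _ ⟨y, -, rfl⟩
    exact Rj_comm hij x y
  perm s hs i := by
    rw [hS] at hs
    obtain ⟨σ, -, hσ, hent⟩ := hs
    obtain ⟨w, -, hwe⟩ := hent i
    refine ⟨σ i, ?_⟩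
    show s * Rj i nu * s⁻¹ = Rj (σ i) nu
    rw [hσ.conj_Rj i hwe, nu_comm, mul_inv_cancel_right]
  V0_eq v := by
    rw [Submodule.mem_bot]
    constructor
    · rintro rfl i
      rw [map_zero]
    · intro h
      funext y
      rcases y with c | c
      · exact (eq_zero_of_fix h2 hab (h c)).1
      · exact (eq_zero_of_fix h2 hab (h c)).2
  dim0 := by rw [finrank_bot]; exact Nat.zero_le 1
  form := exists_form hab
  pieces := ⟨sib T hT, sib_two hT, fun x hx ho hd => pieces h2F h2 hab hT (by rw [← hS]; exact hx) ho hd⟩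

end frame

section card

variable {F : Type u} [Field F] {n : Type w} [Fintype n] [DecidableEq n]

/-- the order of the wreath product -/
theorem card_SG (W : Subgroup (U F)) (T : Subgroup (Perm n)) :
    Nat.card (SG W T : Subgroup (GU n F)) = Nat.card W ^ Fintype.card n * Nat.card T := by
  let f : (n → W) × T → (SG W T : Subgroup (GU n F)) := fun p =>
    ⟨D (fun c => (p.1 c : U F)) * PM (p.2 : Perm n), mul_mem (D_mem T fun c => (p.1 c).2) (PM_mem W p.2.2)⟩
  have hval : ∀ (d : n → U F) (σ : Perm n) (i j : n), (D d * PM σ : GU n F).1 i j = if i = σ j then (d i : ℍ[F]) else 0 := by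
    intro d σ i j
    rw [D_mul_apply, PM_apply]
    split_ifs
    · rw [mul_one]
    · rw [mul_zero]
  have hmono : ∀ (d : n → U F) (σ : Perm n), Mono (D d * PM σ : GU n F).1 σ := by
    intro d σ i j hij
    rw [hval, if_neg hij]
  have hbij : Function.Bijective f := by
    constructor
    · rintro ⟨d, σ⟩ ⟨d', σ'⟩ h
      have h1 : (D (fun c => (d c : U F)) * PM (σ : Perm n) : GU n F) = D (fun c => (d' c : U F)) * PM (σ' : Perm n) :=
        congrArg Subtype.val h
      have h3 := hmono (fun c => (d' c : U F)) σ'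
      rw [← h1] at h3
      have h4 : (σ : Perm n) = σ' := (hmono (fun c => (d c : U F)) σ).unique h3
      have h5 : σ = σ' := Subtype.ext h4
      subst h5
      refine Prod.ext ?_ rfl
      funext c
      have h6 := hval (fun c => (d c : U F)) σ c ((σ : Perm n)⁻¹ c)
      have h7 := hval (fun c => (d' c : U F)) σ c ((σ : Perm n)⁻¹ c)
      rw [← h1, h6, if_pos (by simp), if_pos (by simp)] at h7
      exact Subtype.ext (Subtype.ext h7)
    · rintro ⟨g, hg⟩
      obtain ⟨σ, hσT, hσ, hent⟩ := id hg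
      choose w hw hwe using hent
      refine ⟨(fun c => ⟨w (σ⁻¹ c), hw _⟩, ⟨σ, hσT⟩), ?_⟩
      apply Subtype.ext
      apply Subtype.ext
      ext1 i j
      show (D (fun c => w (σ⁻¹ c)) * PM σ : GU n F).1 i j = g.1 i j
      rw [hval]
      by_cases hij : i = σ j
      · rw [if_pos hij, hij, ← hwe j]
        simp
      · rw [if_neg hij, hσ i j hij]
  rw [← Nat.card_congr (Equiv.ofBijective f hbij), Nat.card_prod, Nat.card_fun, Nat.card_eq_fintype_card (α := n)]

theorem card_sylow_SG (h2 : (2 : F) ≠ 0) (T : Sylow 2 (Perm n)) :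
    Nat.card (SG (Q8 F) (T : Subgroup (Perm n)) : Subgroup (GU n F)) =
      2 ^ (3 * Fintype.card n + (Fintype.card n).factorial.factorization 2) := by
  have : Fact (Nat.Prime 2) := ⟨Nat.prime_two⟩
  rw [card_SG, card_Q8 h2, T.card_eq_multiplicity, Nat.card_perm, Nat.card_eq_fintype_card (α := n), pow_add, pow_mul]
  norm_num

end card

/-- **SPROW** -/
theorem exists_frame {F : Type} [Field F] [Finite F] {p : ℕ} [CharP F p] (h2 : (2 : F) ≠ 0)
    (hns : ¬ IsSquare (2 : F)) {n : Type} [Fintype n] [DecidableEq n] (T : Sylow 2 (Perm n)) :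
    ∃ (k : Type) (_ : Field k) (_ : IsAlgClosed k) (_ : CharP k p) (V : Type) (_ : AddCommGroup V) (_ : Module k V)
      (_ : FiniteDimensional k V) (ρ : GU n F →* (V →ₗ[k] V)) (S : Sylow 2 (GU n F)),
      (S : Subgroup (GU n F)) = SG (Q8 F) (T : Subgroup (Perm n)) ∧
      FrSp ρ S (fun j => Rj j nu) (fun j => (Q8 F).map (Rj j)) ∧
      2 ^ (3 * Nat.card n + (Nat.card n).factorial.factorization 2) ∣ Nat.card S := by
  obtain ⟨a, b, hab⟩ := exists_sq_add_sq (-1 : F)
  obtain ⟨S, hS⟩ := exists_sylow_gen h2 hns T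
  have hchar : CharP (AlgebraicClosure F) p :=
    charP_of_injective_algebraMap (algebraMap F (AlgebraicClosure F)).injective p
  have h2K : (2 : AlgebraicClosure F) ≠ 0 := by
    intro h
    apply h2
    apply (algebraMap F (AlgebraicClosure F)).injective
    rw [map_zero, map_ofNat]
    exact h
  refine ⟨AlgebraicClosure F, inferInstance, inferInstance, hchar, n ⊕ n → AlgebraicClosure F, inferInstance,
    inferInstance, inferInstance, rho (AlgebraicClosure F) hab, S, hS, frSp h2 h2K hab T.isPGroup' S hS, ?_⟩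
  have h3 : Nat.card S = Nat.card (SG (Q8 F) (T : Subgroup (Perm n)) : Subgroup (GU n F)) := by rw [← hS]
  rw [h3, card_sylow_SG h2 T, Nat.card_eq_fintype_card (α := n)]

end Cfsg.Agent.H575.Hall
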